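import Mathlib
import Cfsg.Agent.Eq.Def_Solvable
import Cfsg.Agent.Eq.Def_Transfer
import Cfsg.Agent.Eq.Def_PLocal
import Cfsg.Agent.S0607
import Cfsg.Agent.GlaubermanZJ.PStable
import Cfsg.Agent.GlaubermanZJ.SylowNormal
import Cfsg.Agent.Constrained.Fitting
import Cfsg.Agent.Constrained.PSolvable
import Cfsg.Agent.LocalP.ThompsonJ
import Cfsg.Agent.CharP.PCore

/-!
Thompson factorization for odd primes: in a group without `SL₂` sections, with self-centralizing `O_p`,
the group is `N(J(P)) C(Ω₁ Z(P))`.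
-/

set_option autoImplicit false

namespace CfsgLib.Offender44

open Cfsg
open scoped commutatorElement

variable {G : Type*} [Group G] [Finite G] {p : ℕ} [Fact p.Prime]

/-- A normal subgroup whose image in the action on the conjugates of `Z` is a `p`-group centralises
them, if the Sylow subgroup centralises `Z`. -/
theorem le_of_pGroup_image (S : Sylow p G) {C T : Subgroup G}
    [C.Normal] [T.Normal] (hCT : C ≤ T) (hk : ∃ k : ℕ, C.relIndex T = p ^ k) (Z : Set G)
    (hSZ : ∀ s ∈ (S : Subgroup G), ∀ z ∈ Z, s * z = z * s)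
    (hCZ : ∀ x : G, x ∈ C ↔ ∀ (g : G), ∀ z ∈ Z, x * (g * z * g⁻¹) = g * z * g⁻¹ * x) : T ≤ C := by
  intro d hd
  obtain ⟨c₀, hc₀, t, htS, htT, rfl⟩ := CfsgLib.GlaubermanZJ.exists_mul_of_relIndex_pow S hCT hk hd
  refine mul_mem hc₀ ((hCZ t).2 fun g z hz => ?_)
  obtain ⟨m, hm, d', hd', rfl⟩ := CfsgLib.GlaubermanZJ.exists_frattini S T g
  obtain ⟨c, hc, s, hsS, -, rfl⟩ := CfsgLib.GlaubermanZJ.exists_mul_of_relIndex_pow S hCT hk hd'
  have hcz : c * z * c⁻¹ = z := by
    have h1 := (hCZ c).1 hc 1 z hz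
    simp only [one_mul, inv_one, mul_one] at h1
    rw [h1, mul_inv_cancel_right]
  have hsz : s * z * s⁻¹ = z := by rw [hSZ s hsS z hz, mul_inv_cancel_right]
  have he : m * (c * s) * z * (m * (c * s))⁻¹ = m * z * m⁻¹ := by
    rw [show m * (c * s) * z * (m * (c * s))⁻¹ = m * (c * (s * z * s⁻¹) * c⁻¹) * m⁻¹ by group,
      hsz, hcz]
  rw [he]
  have h2 : m⁻¹ * t * m ∈ (S : Subgroup G) := ((Subgroup.mem_normalizer_iff''.1 hm t).1 ⟨htS, htT⟩).1
  calc t * (m * z * m⁻¹) = m * ((m⁻¹ * t * m) * z) * m⁻¹ := by group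
    _ = m * (z * (m⁻¹ * t * m)) * m⁻¹ := by rw [hSZ _ h2 z hz]
    _ = m * z * m⁻¹ * t := by group

/-- A member of `𝒜(P)` moving an elementary abelian normal subgroup gives an element of `P` acting
quadratically and nontrivially on it. -/
theorem exists_quadratic_of_maxElemIn (P : Subgroup G) (W : Subgroup G) [W.Normal] (hW : IsElementaryAbelian p W)
    (hWP : W ≤ P) {A : Subgroup G} (hA : A ∈ CfsgLib.LocalP.maxElemIn p P)
    (hne : ¬ A ≤ Subgroup.centralizer (W : Set G)) :
    ∃ a ∈ P, a ∉ Subgroup.centralizer (W : Set G) ∧ ∀ v ∈ W, ⁅⁅v, a⁆, a⁆ = 1 := by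
  have hA' : A.subgroupOf P ∈ maxElementaryAbelianSubgroups p P := by
    rw [CfsgLib.LocalP.maxElementaryAbelian_eq]
    have hmap : (⊤ : Subgroup P).map P.subtype = P := by
      rw [← MonoidHom.range_eq_map, Subgroup.range_subtype]
    obtain ⟨B, hB, hBA⟩ :=
      (CfsgLib.LocalP.mem_map_iff (p := p) P.subtype P.subtype_injective (⊤ : Subgroup P) A).1 (by rwa [hmap])
    rwa [← hBA, ← Subgroup.comap_subtype, Subgroup.comap_map_eq_self_of_injective P.subtype_injective]
  have hW' : IsElementaryAbelian p (W.subgroupOf P) :=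
    CfsgLib.LocalP.isElementaryAbelian_of_map P.subtype P.subtype_injective
      (by rwa [Subgroup.map_subgroupOf_eq_of_le hWP])
  obtain ⟨-, hquad, hnontriv⟩ := Cfsg.Agent.S0607.result (W.subgroupOf P) hW' (A.subgroupOf P) hA'
  have h1 : ⁅W.subgroupOf P, A.subgroupOf P⁆ ≠ ⊥ := by
    rw [Ne, Subgroup.commutator_eq_bot_iff_le_centralizer]
    intro h
    refine hne fun a ha => Subgroup.mem_centralizer_iff.2 fun w hw => ?_
    have h2 := Subgroup.mem_centralizer_iff.1 (h (show (⟨w, hWP hw⟩ : P) ∈ W.subgroupOf P from hw))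
      (⟨a, hA.1 ha⟩ : P) (show a ∈ A from ha)
    exact (congrArg Subtype.val h2).symm
  have h3 := hnontriv h1
  rw [Ne, Subgroup.commutator_eq_bot_iff_le_centralizer, SetLike.not_le_iff_exists] at h3
  obtain ⟨w, hw, hwc⟩ := h3
  rw [Subgroup.mem_centralizer_iff] at hwc
  push Not at hwc
  obtain ⟨a, ha, hwa⟩ := hwc
  refine ⟨a, a.2, fun hc => hwa ?_, fun v hv => ?_⟩
  · exact Subtype.ext (Subgroup.mem_centralizer_iff.1 hc w hw).symm
  · have h4 : ⁅⁅(⟨v, hWP hv⟩ : P), a⁆, a⁆ = 1 := by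
      rw [← Subgroup.mem_bot, ← hquad]
      exact Subgroup.commutator_mem_commutator
        (Subgroup.commutator_mem_commutator (show v ∈ W from hv) ha) ha
    have h5 := congrArg P.subtype h4
    rwa [map_commutatorElement, map_commutatorElement, map_one] at h5

/-- Thompson factorization without `SL₂` sections. -/
theorem exists_normalizer_mul_centralizer (hns : CfsgLib.GlaubermanZJ.NoSL2Section p G)
    (hself : Subgroup.centralizer ((pCore p G : Subgroup G) : Set G) ≤ pCore p G) (P : Sylow p G) (g : G) :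
    ∃ a ∈ Subgroup.normalizer (thompsonSubgroupOf p (P : Subgroup G) : Set G), ∃ c ∈ Subgroup.centralizer
      {x : G | x ∈ (P : Subgroup G) ∧ (∀ y ∈ (P : Subgroup G), x * y = y * x) ∧ x ^ p = 1}, g = a * c := by
  classical
  set Q := pCore p G with hQ
  haveI : Q.Normal := inferInstance
  have hQP : Q ≤ P := CfsgLib.CharP.pCore_le_sylow P
  set Z : Set G := {x : G | x ∈ (P : Subgroup G) ∧ (∀ y ∈ (P : Subgroup G), x * y = y * x) ∧ x ^ p = 1}
    with hZ
  set V : Subgroup G := Q ⊓ Subgroup.centralizer (Q : Set G) with hV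
  have hVc : ∀ a ∈ V, ∀ b ∈ V, a * b = b * a := fun a ha b hb =>
    Subgroup.mem_centralizer_iff.1 hb.2 a ha.1
  let E : Subgroup G :=
    { carrier := {v | v ∈ V ∧ v ^ p = 1}
      one_mem' := ⟨one_mem _, one_pow _⟩
      mul_mem' := fun {a b} ha hb => ⟨mul_mem ha.1 hb.1, by
        rw [Commute.mul_pow (hVc a ha.1 b hb.1), ha.2, hb.2, one_mul]⟩
      inv_mem' := fun {a} ha => ⟨inv_mem ha.1, by rw [inv_pow, ha.2, inv_one]⟩ }
  haveI : V.Normal := inferInstance
  haveI : E.Normal := ⟨fun v hv g => ⟨(inferInstance : V.Normal).conj_mem v hv.1 g, by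
    rw [conj_pow, hv.2]; group⟩⟩
  set W := Subgroup.normalClosure Z with hWdef
  have hWE : W ≤ E := Subgroup.normalClosure_le_normal fun z hz =>
    ⟨⟨hself (Subgroup.mem_centralizer_iff.2 fun q hq => (hz.2.1 q (hQP hq)).symm),
      Subgroup.mem_centralizer_iff.2 fun q hq => (hz.2.1 q (hQP hq)).symm⟩, hz.2.2⟩
  have hWel : IsElementaryAbelian p W := CfsgLib.LocalP.isElementaryAbelian_iff.2
    ⟨fun a ha b hb => hVc a (hWE ha).1 b (hWE hb).1, fun a ha => (hWE ha).2⟩
  have hWP : W ≤ P := fun a ha => hQP (hWE ha).1.1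
  haveI : W.Normal := Subgroup.normalClosure_normal
  set C := Subgroup.centralizer (W : Set G) with hC
  haveI : C.Normal := inferInstance
  have hSZ : ∀ s ∈ (P : Subgroup G), ∀ z ∈ Z, s * z = z * s := fun s hs z hz => (hz.2.1 s hs).symm
  have hCZ : ∀ x : G, x ∈ C ↔ ∀ (g : G), ∀ z ∈ Z, x * (g * z * g⁻¹) = g * z * g⁻¹ * x := by
    intro x
    constructor
    · intro hx g z hz
      exact (Subgroup.mem_centralizer_iff.1 hx _ (Subgroup.normalClosure_normal.conj_mem z
        (Subgroup.subset_normalClosure hz) g)).symm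
    · intro hx
      refine Subgroup.mem_centralizer_iff.2 fun w hw => ?_
      have : W ≤ Subgroup.centralizer ({x} : Set G) := by
        rw [hWdef, Subgroup.normalClosure, Subgroup.closure_le]
        intro w hw
        obtain ⟨z, hz, hzw⟩ := Group.mem_conjugatesOfSet_iff.1 hw
        obtain ⟨g, rfl⟩ := isConj_iff.1 hzw
        exact Subgroup.mem_centralizer_singleton_iff.2 (hx g z hz).symm
      exact Subgroup.mem_centralizer_singleton_iff.1 (this hw)
  have hK : (pCore p (G ⧸ C)).comap (QuotientGroup.mk' C) ≤ C :=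
    le_of_pGroup_image P (CfsgLib.GlaubermanZJ.le_comap_pCore C)
      (CfsgLib.GlaubermanZJ.relIndex_comap_pCore C) Z hSZ hCZ
  have hJC : thompsonSubgroupOf p (P : Subgroup G) ≤ C := by
    rw [CfsgLib.LocalP.thompsonSubgroupOf_eq_sSup]
    refine sSup_le fun A hA => ?_
    by_contra hAC
    obtain ⟨a, -, haC, hq⟩ := exists_quadratic_of_maxElemIn (P : Subgroup G) W hWel hWP hA hAC
    obtain ⟨n, ρ, hρ, hρq⟩ := CfsgLib.GlaubermanZJ.exists_rep_of_elementaryAbelian (p := p) W hWel
    have h2 := CfsgLib.GlaubermanZJ.mem_pCore_of_quadratic_linear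
      (hns.of_surjective (QuotientGroup.mk' C) (QuotientGroup.mk'_surjective C)) ρ hρ (hρq a hq)
    exact haC (hK (Subgroup.mem_comap.2 h2))
  obtain ⟨m, hm, c, hc, rfl⟩ := CfsgLib.GlaubermanZJ.exists_frattini P C g
  refine ⟨m, ?_, c, Subgroup.centralizer_le Subgroup.subset_normalClosure hc, rfl⟩
  have h := CfsgLib.LocalP.le_normalizer_thompsonSubgroupOf (p := p) _ hm
  rwa [CfsgLib.LocalP.thompsonSubgroupOf_eq_of_le inf_le_left
    (le_inf (CfsgLib.LocalP.thompsonSubgroupOf_le _) hJC)] at h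

/-- Thompson factorization for solvable groups. -/
theorem exists_factor_of_solvable [Group.IsSolvable G] (hp : p ≠ 2)
    (h3 : p = 3 → ∀ T : Sylow 2 G, IsMulCommutative T)
    (hF : pPrimeCore p G = ⊥) (P : Sylow p G) (g : G) :
    ∃ a ∈ Subgroup.normalizer (thompsonSubgroupOf p (P : Subgroup G) : Set G), ∃ c ∈ Subgroup.centralizer
      {x : G | x ∈ (P : Subgroup G) ∧ (∀ y ∈ (P : Subgroup G), x * y = y * x) ∧ x ^ p = 1}, g = a * c := by
  refine exists_normalizer_mul_centralizer ?_ ?_ P g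
  · refine CfsgLib.GlaubermanZJ.noSL2Section_of_isPSolvable hp
      CfsgLib.Constrained.isPSolvable_of_isSolvable ?_
    by_cases hp3 : p = 3
    · exact Or.inr fun A hA => CfsgLib.GlaubermanZJ.forall_isMulCommutative_of_sylow (h3 hp3) hA
    · left
      have h1 := (Fact.out : p.Prime).two_le
      by_contra hlt
      obtain rfl : p = 4 := by omega
      exact absurd (Fact.out : (4 : ℕ).Prime) (by norm_num)
  · have := CfsgLib.Constrained.centralizer_fitting_le (G := G)
    rwa [CfsgLib.Constrained.fitting_eq_pCore (p := p) hF] at this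

end CfsgLib.Offender44
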